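import Cfsg.Agent.H70.RuMult.Data

/-! Kernel checks of the certificates at 2. -/

set_option autoImplicit false
set_option maxRecDepth 100000

namespace Cfsg.Agent.H70.RuMult

open Cfsg.Agent.H16 Cfsg.Agent.H36 Cfsg.Agent.H13.SylMult

theorem rows2_part2 : ((((List.zip cert2.eqns cert2.rows).drop 61).take 30).all
    fun qr => eqnOk pc2 cert2 qr.1 qr.2) = true := by decide +kernel

end Cfsg.Agent.H70.RuMult
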