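import Cfsg.Agent.H70.RuMult.Checks2Rows0
import Cfsg.Agent.H70.RuMult.Checks2Rows1
import Cfsg.Agent.H70.RuMult.Checks2Rows2

/-! Kernel checks of the certificates at 2. -/

set_option autoImplicit false
set_option maxRecDepth 100000

namespace Cfsg.Agent.H70.RuMult

open Cfsg.Agent.H16 Cfsg.Agent.H36 Cfsg.Agent.H13.SylMult

theorem rows2_ok : cert2.rowsOk pc2 = true := by
  have hl : Nat.beq cert2.eqns.length cert2.rows.length = true := by decide +kernel
  simp only [Cert.rowsOk, Bool.and_eq_true]
  refine ⟨hl, ?_⟩
  have hlen : (List.zip cert2.eqns cert2.rows).length = 91 := by decide +kernel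
  have e : List.zip cert2.eqns cert2.rows =
      ((List.zip cert2.eqns cert2.rows).drop 0).take 31 ++ (((List.zip cert2.eqns cert2.rows).drop 31).take 30 ++
        ((List.zip cert2.eqns cert2.rows).drop 61).take 30) := by
    generalize List.zip cert2.eqns cert2.rows = L at hlen
    rw [List.take_of_length_le (l := L.drop 61) (by simp [hlen]), List.drop_zero]
    conv_lhs => rw [← List.take_append_drop 31 L, ← List.take_append_drop 30 (L.drop 31), List.drop_drop]
  rw [e, List.all_append, List.all_append, Bool.and_eq_true, Bool.and_eq_true]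
  exact ⟨rows2_part0, rows2_part1, rows2_part2⟩

end Cfsg.Agent.H70.RuMult
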