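import Cfsg.Agent.H70.RuMult.Data

/-! Kernel checks of the certificates at 3. -/

set_option autoImplicit false
set_option maxRecDepth 100000

namespace Cfsg.Agent.H70.RuMult

open Cfsg.Agent.H16 Cfsg.Agent.H36 Cfsg.Agent.H13.SylMult

theorem pc3_ok : pc3.ok cert3 = true := by decide +kernel

theorem rows3_ok : cert3.rowsOk pc3 = true := by decide +kernel

theorem combos3_ok : cert3.combosOk pc3 = true := by decide +kernel

theorem rels3_ok : perm3.relsOk pc3 = true := by decide +kernel

theorem sep3_ok : perm3.sepOk pc3 = true := by decide +kernel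

theorem conj3_ok : cert3.eqns.all perm3.conjOk = true := by decide +kernel

theorem small3_ok : (perm3.letters.all (fun k => Nat.blt k perm3.ctx.ns) &&
    perm3.conjs.all (fun k => Nat.blt k perm3.ctx.ns) &&
    perm3.bases.all (fun b => Nat.blt b perm3.ctx.n)) = true := by decide +kernel

end Cfsg.Agent.H70.RuMult
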