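import Cfsg.Agent.H70.RuMult.Data

/-! Kernel checks of the certificates at 5. -/

set_option autoImplicit false
set_option maxRecDepth 100000

namespace Cfsg.Agent.H70.RuMult

open Cfsg.Agent.H16 Cfsg.Agent.H36 Cfsg.Agent.H13.SylMult

theorem pc5_ok : pc5.ok cert5 = true := by decide +kernel

theorem rows5_ok : cert5.rowsOk pc5 = true := by decide +kernel

theorem combos5_ok : cert5.combosOk pc5 = true := by decide +kernel

theorem rels5_ok : perm5.relsOk pc5 = true := by decide +kernel

theorem sep5_ok : perm5.sepOk pc5 = true := by decide +kernel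

theorem conj5_ok : cert5.eqns.all perm5.conjOk = true := by decide +kernel

theorem small5_ok : (perm5.letters.all (fun k => Nat.blt k perm5.ctx.ns) &&
    perm5.conjs.all (fun k => Nat.blt k perm5.ctx.ns) &&
    perm5.bases.all (fun b => Nat.blt b perm5.ctx.n)) = true := by decide +kernel

end Cfsg.Agent.H70.RuMult
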