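import Cfsg.Agent.H70.RuMult.Data

/-! Kernel check of a block of program entries. -/

set_option autoImplicit false
set_option maxRecDepth 100000

namespace Cfsg.Agent.H70.RuMult

open Cfsg.Agent.H16

theorem slp_block5 : allFrom (fun k => ctx.slpOk k) 64 320 = true := by decide +kernel

end Cfsg.Agent.H70.RuMult
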