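import Cfsg.Agent.H70.RuMult.Slp0
import Cfsg.Agent.H70.RuMult.Slp1
import Cfsg.Agent.H70.RuMult.Slp2
import Cfsg.Agent.H70.RuMult.Slp3
import Cfsg.Agent.H70.RuMult.Slp4
import Cfsg.Agent.H70.RuMult.Slp5
import Cfsg.Agent.H70.RuMult.Slp6
import Cfsg.Agent.H70.RuMult.Slp7
import Cfsg.Agent.H70.RuMult.Slp8
import Cfsg.Agent.H70.RuMult.Slp9
import Cfsg.Agent.H16.CosetSplit

/-! All entries of the program are correct. -/

set_option autoImplicit false
set_option maxRecDepth 100000

namespace Cfsg.Agent.H70.RuMult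

open Cfsg.Agent.H16

theorem ctx_ns : ctx.ns = 586 := rfl

theorem slp_ok : allFrom ctx.slpOk ctx.ns 0 = true := by
  refine allFrom_of_forall _ _ fun k _ hk => ?_
  rw [ctx_ns] at hk
  rcases Nat.lt_or_ge k 64 with h | h0
  · exact allFrom_spec slp_block0 k (Nat.zero_le _) (by omega)
  rcases Nat.lt_or_ge k 128 with h | h1
  · exact allFrom_spec slp_block1 k h0 (by omega)
  rcases Nat.lt_or_ge k 192 with h | h2
  · exact allFrom_spec slp_block2 k h1 (by omega)
  rcases Nat.lt_or_ge k 256 with h | h3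
  · exact allFrom_spec slp_block3 k h2 (by omega)
  rcases Nat.lt_or_ge k 320 with h | h4
  · exact allFrom_spec slp_block4 k h3 (by omega)
  rcases Nat.lt_or_ge k 384 with h | h5
  · exact allFrom_spec slp_block5 k h4 (by omega)
  rcases Nat.lt_or_ge k 448 with h | h6
  · exact allFrom_spec slp_block6 k h5 (by omega)
  rcases Nat.lt_or_ge k 512 with h | h7
  · exact allFrom_spec slp_block7 k h6 (by omega)
  rcases Nat.lt_or_ge k 576 with h | h8
  · exact allFrom_spec slp_block8 k h7 (by omega)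
  exact allFrom_spec slp_block9 k h8 (by omega)

end Cfsg.Agent.H70.RuMult
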