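import Cfsg.Agent.H70.RuMult.Checks2
import Cfsg.Agent.H70.RuMult.Checks2Rels
import Cfsg.Agent.H70.RuMult.Checks2Sep
import Cfsg.Agent.H70.RuMult.Checks2Conj
import Cfsg.Agent.H70.RuMult.Checks2Rows
import Cfsg.Agent.H70.RuMult.Checks3
import Cfsg.Agent.H70.RuMult.Checks5
import Cfsg.Agent.H70.RuMult.SlpAll
import Cfsg.Agent.H13.SylMult.Mult

/-!
An upper bound on the Schur multiplier of a permutation group on 4060 points that is generated by the
stored generators and has the order of the Rudvalis group: a stem extension has kernel of order at most two.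
-/

set_option autoImplicit false
set_option maxRecDepth 100000

namespace Cfsg.Agent.H70.RuMult

open Cfsg Equiv Cfsg.Agent.H16 Cfsg.Agent.H36 Cfsg.Agent.H13.SylMult

theorem perm_ok {R : PermData} {D : Pc} {C : Cert} (h1 : R.relsOk D = true) (h2 : R.sepOk D = true)
    (h3 : C.eqns.all R.conjOk = true)
    (h4 : (R.letters.all (fun k => Nat.blt k R.ctx.ns) && R.conjs.all (fun k => Nat.blt k R.ctx.ns) &&
      R.bases.all (fun b => Nat.blt b R.ctx.n)) = true)
    (h5 : allFrom R.ctx.slpOk R.ctx.ns 0 = true) : R.ok D C = true := by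
  simp only [Bool.and_eq_true] at h4
  simp only [PermData.ok, Bool.and_eq_true]
  exact ⟨⟨⟨⟨⟨⟨h1, h2⟩, h3⟩, h4.1.1⟩, h4.1.2⟩, h4.2⟩, h5⟩

theorem perm2_ok : perm2.ok pc2 cert2 = true := perm_ok rels2_ok sep2_ok conj2_ok small2_ok slp_ok

theorem perm3_ok : perm3.ok pc3 cert3 = true := perm_ok rels3_ok sep3_ok conj3_ok small3_ok slp_ok

theorem perm5_ok : perm5.ok pc5 cert5 = true := perm_ok rels5_ok sep5_ok conj5_ok small5_ok slp_ok

theorem ctx_len : ctx.gens.length = 2 := rfl

/-- The upper bound. -/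
theorem card_ker_dvd_two (σ : Fin ctx.gens.length → Perm (Fin ctx.n))
    (hσ : ∀ c, ctx.Rep (σ c) (getN ctx.gens c))
    (hcard : Nat.card (Subgroup.closure (Set.range σ)) = 145926144000)
    (Δ : Type) [Group Δ] [Finite Δ]
    (τ : Δ →* Subgroup.closure (Set.range σ)) (hτ : Cfsg.IsStemExtension τ) : Nat.card τ.ker ∣ 2 := by
  have hg2 := groupFacts (R := perm2) (D := pc2) (C := cert2) σ hσ perm2_ok (by decide +kernel)
    (show Nat.Prime 2 by norm_num) pc2_ok rows2_ok (by decide +kernel)
  have hg3 := groupFacts (R := perm3) (D := pc3) (C := cert3) σ hσ perm3_ok (by decide +kernel)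
    (show Nat.Prime 3 by norm_num) pc3_ok rows3_ok (by decide +kernel)
  have hg5 := groupFacts (R := perm5) (D := pc5) (C := cert5) σ hσ perm5_ok (by decide +kernel)
    (show Nat.Prime 5 by norm_num) pc5_ok rows5_ok (by decide +kernel)
  obtain ⟨E2, F2, h2⟩ := hg2
  obtain ⟨E3, F3, h3⟩ := hg3
  obtain ⟨E5, F5, h5⟩ := hg5
  have b2 := factorization_ker_le hτ (show Nat.Prime 2 by norm_num) pc2_ok rows2_ok combos2_ok h2
    (factorization_eq (a := 14) (b := 8906625) (by norm_num : Nat.Prime 2) (by rw [hcard]; rfl)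
      (show ¬ (2 : ℕ) ∣ 8906625 by norm_num))
  have b3 := factorization_ker_le hτ (show Nat.Prime 3 by norm_num) pc3_ok rows3_ok combos3_ok h3
    (factorization_eq (a := 3) (b := 5404672000) (by norm_num : Nat.Prime 3) (by rw [hcard]; rfl)
      (show ¬ (3 : ℕ) ∣ 5404672000 by norm_num))
  have b5 := factorization_ker_le hτ (show Nat.Prime 5 by norm_num) pc5_ok rows5_ok combos5_ok h5
    (factorization_eq (a := 3) (b := 1167409152) (by norm_num : Nat.Prime 5) (by rw [hcard]; rfl)
      (show ¬ (5 : ℕ) ∣ 1167409152 by norm_num))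
  refine card_ker_dvd hτ (by norm_num) [2, 3, 5] (fun p hp => ?_) (fun p hp hn => ?_)
  · simp only [List.mem_cons, List.not_mem_nil, or_false] at hp
    rcases hp with rfl | rfl | rfl
    · rw [Nat.Prime.factorization_self Nat.prime_two]; exact b2
    · exact b3.trans (Nat.zero_le _)
    · exact b5.trans (Nat.zero_le _)
  · rw [hcard]
    simp only [List.mem_cons, List.not_mem_nil, or_false, not_or] at hn
    by_contra hlt
    have hd : p ^ 2 ∣ 2 ^ 14 * (3 ^ 3 * (5 ^ 3 * (7 * (13 * 29)))) := by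
      refine (pow_dvd_pow p (by omega : 2 ≤ (145926144000 : ℕ).factorization p)).trans ?_
      norm_num
      exact Nat.ordProj_dvd 145926144000 p
    have cop : ∀ q k, q.Prime → p ≠ q → Nat.Coprime (p ^ 2) (q ^ k) := fun q k hq hne =>
      Nat.Coprime.pow 2 k ((Nat.coprime_primes hp hq).2 hne)
    have h1 := (cop 2 14 Nat.prime_two hn.1).dvd_of_dvd_mul_left hd
    have h2 := (cop 3 3 Nat.prime_three hn.2.1).dvd_of_dvd_mul_left h1
    have h3 := (cop 5 3 (by norm_num) hn.2.2).dvd_of_dvd_mul_left h2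
    have h4 : p ∣ 7 * (13 * 29) := (dvd_pow_self p two_ne_zero).trans h3
    rcases (Nat.Prime.dvd_mul hp).1 h4 with h | h
    · rw [(Nat.prime_dvd_prime_iff_eq hp (by norm_num)).1 h] at h3; norm_num at h3
    · rcases (Nat.Prime.dvd_mul hp).1 h with h | h
      · rw [(Nat.prime_dvd_prime_iff_eq hp (by norm_num)).1 h] at h3; norm_num at h3
      · rw [(Nat.prime_dvd_prime_iff_eq hp (by norm_num)).1 h] at h3; norm_num at h3

end Cfsg.Agent.H70.RuMult
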