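import Cfsg.Agent.H70.RuMult.Data

/-! Kernel checks of the certificates at 2. -/

set_option autoImplicit false
set_option maxRecDepth 100000

namespace Cfsg.Agent.H70.RuMult

open Cfsg.Agent.H16 Cfsg.Agent.H36 Cfsg.Agent.H13.SylMult

theorem pc2_ok : pc2.ok cert2 = true := by decide +kernel

theorem combos2_ok : cert2.combosOk pc2 = true := by decide +kernel

theorem small2_ok : (perm2.letters.all (fun k => Nat.blt k perm2.ctx.ns) &&
    perm2.conjs.all (fun k => Nat.blt k perm2.ctx.ns) &&
    perm2.bases.all (fun b => Nat.blt b perm2.ctx.n)) = true := by decide +kernel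

end Cfsg.Agent.H70.RuMult
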