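import Cfsg.Prelude.Def_Spor_Ru
import Cfsg.Prelude.Def_KGroupFacts
import Mathlib

/-!
The double cover of the Rudvalis group inside its lattice automorphism group: the derived subgroup, whose
kernel over the quotient contains the negation, the commutator of two right quaternion multiplications.
-/

set_option autoImplicit false

namespace Cfsg.Agent.H70.RuMult

open Cfsg.Spor
open scoped commutatorElement

/-- The lattice maps given by the monomial generators `ruRj` and `ruRk`. -/
def restr (f : RuVec → RuVec) (hL : ∀ v ∈ ruLattice, f v ∈ ruLattice)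
    (h4 : ∀ v, f (f (f (f v))) = v) : Equiv.Perm ruLattice where
  toFun v := ⟨f v, hL v v.2⟩
  invFun v := ⟨f (f (f v)), hL _ (hL _ (hL v v.2))⟩
  left_inv v := Subtype.ext (h4 v)
  right_inv v := Subtype.ext (h4 v)

theorem rj_mem_lattice : ∀ v ∈ ruLattice, ruRj v ∈ ruLattice := fun v hv => by
  rw [ruLattice, AddSubgroup.mem_sInf] at hv ⊢
  exact fun L hL => (hL.2 v (hv L hL)).2.1

theorem rk_mem_lattice : ∀ v ∈ ruLattice, ruRk v ∈ ruLattice := fun v hv => by
  rw [ruLattice, AddSubgroup.mem_sInf] at hv ⊢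
  exact fun L hL => (hL.2 v (hv L hL)).2.2.1

theorem gI_sq (z : GaussianInt) : gI * (gI * z) = -z := by
  ext <;> simp [gI]

theorem rj_rj (v : RuVec) : ruRj (ruRj v) = -v := by
  funext ⟨a, t⟩
  fin_cases t <;> simp [ruRj, gI_sq]

theorem rk_rk (v : RuVec) : ruRk (ruRk v) = -v := by
  funext ⟨a, t⟩
  fin_cases t <;> simp [ruRk, gI_sq]

theorem rj_four (v : RuVec) : ruRj (ruRj (ruRj (ruRj v))) = v := by rw [rj_rj, rj_rj, neg_neg]

theorem rk_four (v : RuVec) : ruRk (ruRk (ruRk (ruRk v))) = v := by rw [rk_rk, rk_rk, neg_neg]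

theorem norm_gI : Zsqrtd.norm gI = 1 := by
  simp [gI, Zsqrtd.norm]

theorem ruNorm_rj (v : RuVec) : ruNorm (ruRj v) = ruNorm v := by
  simp only [ruNorm, Fintype.sum_prod_type, Fin.sum_univ_four]
  refine Finset.sum_congr rfl fun a _ => ?_
  simp [ruRj, norm_gI]
  ring

theorem ruNorm_rk (v : RuVec) : ruNorm (ruRk v) = ruNorm v := by
  simp only [ruNorm, Fintype.sum_prod_type, Fin.sum_univ_four]
  refine Finset.sum_congr rfl fun a _ => ?_
  simp [ruRk, norm_gI]
  ring

/-- Right multiplication by `j`, as an element of the automorphism group. -/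
def autJ : fourRu := ⟨restr ruRj rj_mem_lattice rj_four, fun v w => Subtype.ext (by
    funext ⟨a, t⟩
    fin_cases t <;> simp [restr, ruRj] <;> ring),
  fun v => Subtype.ext (by
    funext ⟨a, t⟩
    fin_cases t <;> simp [restr, ruRj, ruI] <;> ring),
  fun v => ruNorm_rj v⟩

/-- Right multiplication by `k`, as an element of the automorphism group. -/
def autK : fourRu := ⟨restr ruRk rk_mem_lattice rk_four, fun v w => Subtype.ext (by
    funext ⟨a, t⟩
    fin_cases t <;> simp [restr, ruRk] <;> ring),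
  fun v => Subtype.ext (by
    funext ⟨a, t⟩
    fin_cases t <;> simp [restr, ruRk, ruI] <;> ring),
  fun v => ruNorm_rk v⟩

theorem rj_rk (v : RuVec) : ruRj (ruRk v) = -ruRk (ruRj v) := by
  funext ⟨a, t⟩
  fin_cases t <;> simp [ruRj, ruRk, gI_sq]

theorem autJK_central : autJ * autK * (autK * autJ)⁻¹ ∈ Subgroup.center fourRu := by
  have hneg : ∀ v : ruLattice, ((autJ * autK * (autK * autJ)⁻¹ : fourRu) : Equiv.Perm ruLattice) v = -v := by
    intro v
    obtain ⟨w, rfl⟩ := ((autK * autJ : fourRu) : Equiv.Perm ruLattice).surjective v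
    rw [Subgroup.coe_mul, Subgroup.coe_inv, Equiv.Perm.mul_apply, Equiv.Perm.coe_inv,
      Equiv.symm_apply_apply]
    exact Subtype.ext (rj_rk w)
  rw [Subgroup.mem_center_iff]
  intro g
  refine Subtype.ext (Equiv.ext fun v => ?_)
  let h : ruLattice →+ ruLattice := AddMonoidHom.mk' (g : Equiv.Perm ruLattice) g.2.1
  show (g : Equiv.Perm ruLattice) (((autJ * autK * (autK * autJ)⁻¹ : fourRu) : Equiv.Perm ruLattice) v) =
    ((autJ * autK * (autK * autJ)⁻¹ : fourRu) : Equiv.Perm ruLattice) ((g : Equiv.Perm ruLattice) v)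
  rw [hneg, hneg]
  exact map_neg h v

theorem table_head_mem : ruTable.head (by simp [ruTable]) ∈ ruLattice := by
  rw [ruLattice, AddSubgroup.mem_sInf]
  exact fun L hL => hL.1 _ (List.head_mem _)

theorem head_ne : ruRj (ruRk (ruTable.head (by simp [ruTable]))) ≠
    ruRk (ruRj (ruTable.head (by simp [ruTable]))) := by decide +kernel

theorem autJK_ne : autJ * autK * (autK * autJ)⁻¹ ≠ 1 := by
  intro h
  rw [mul_inv_eq_one] at h
  have h1 := congrArg (fun g : fourRu => (((g : Equiv.Perm ruLattice) ⟨_, table_head_mem⟩ : ruLattice) : RuVec)) h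
  exact head_ne h1

/-- A double cover with the bound gives a stem extension of the Rudvalis group with kernel of order two. -/
theorem exists_double_cover [Finite fourRu] (hperf : commutator Ru = ⊤)
    (hb : ∀ (Δ : Type) [Group Δ] [Finite Δ] (τ : Δ →* Ru), Cfsg.IsStemExtension τ → Nat.card τ.ker ∣ 2) :
    ∃ (Γ : Type) (_ : Group Γ) (_ : Finite Γ) (π : Γ →* Ru),
      Cfsg.IsStemExtension π ∧ IsCyclic π.ker ∧ Nat.card π.ker = 2 := by
  let D : Subgroup fourRu := commutator fourRu
  let π : D →* Ru := (QuotientGroup.mk' (Subgroup.center fourRu)).comp D.subtype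
  have hmap : D.map (QuotientGroup.mk' (Subgroup.center fourRu)) = ⊤ := by
    rw [← hperf]
    simp only [D, commutator_def]
    rw [Subgroup.map_commutator, Subgroup.map_top_of_surjective _ (QuotientGroup.mk'_surjective _)]
  have hsurj : Function.Surjective π := by
    intro q
    have hq : q ∈ D.map (QuotientGroup.mk' (Subgroup.center fourRu)) := by rw [hmap]; trivial
    obtain ⟨d, hd, rfl⟩ := hq
    exact ⟨⟨d, hd⟩, rfl⟩
  have hker : π.ker = (Subgroup.center fourRu).subgroupOf D := by
    ext x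
    rw [MonoidHom.mem_ker, Subgroup.mem_subgroupOf]
    exact QuotientGroup.eq_one_iff _
  have hcomm : commutator D = ⊤ := by
    have hdec : ∀ g : fourRu, ∃ d ∈ D, ∃ z ∈ Subgroup.center fourRu, g = d * z := by
      intro g
      obtain ⟨d, hd⟩ := hsurj (QuotientGroup.mk g)
      refine ⟨d, d.2, (d : fourRu)⁻¹ * g, ?_, by group⟩
      exact QuotientGroup.eq.1 hd
    have hle : D ≤ (commutator D).map D.subtype := by
      refine Subgroup.commutator_le.2 fun a _ b _ => ?_
      obtain ⟨d, hd, z, hz, rfl⟩ := hdec a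
      obtain ⟨e, he, y, hy, rfl⟩ := hdec b
      rw [Subgroup.mem_center_iff] at hz hy
      have : ⁅d * z, e * y⁆ = D.subtype ⁅(⟨d, hd⟩ : D), ⟨e, he⟩⁆ := by
        simp only [commutatorElement_def, mul_inv_rev, map_mul, map_inv]
        show d * z * (e * y) * (z⁻¹ * d⁻¹) * (y⁻¹ * e⁻¹) = d * e * d⁻¹ * e⁻¹
        calc d * z * (e * y) * (z⁻¹ * d⁻¹) * (y⁻¹ * e⁻¹)
            = d * (z * (e * y)) * (z⁻¹ * d⁻¹) * (y⁻¹ * e⁻¹) := by group
          _ = d * ((e * y) * z) * (z⁻¹ * d⁻¹) * (y⁻¹ * e⁻¹) := by rw [← hz (e * y)]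
          _ = d * e * (y * d⁻¹) * (y⁻¹ * e⁻¹) := by group
          _ = d * e * (d⁻¹ * y) * (y⁻¹ * e⁻¹) := by rw [← hy d⁻¹]
          _ = d * e * d⁻¹ * e⁻¹ := by group
      rw [this]
      exact Subgroup.mem_map_of_mem _ (Subgroup.commutator_mem_commutator trivial trivial)
    refine eq_top_iff.2 fun x _ => ?_
    obtain ⟨y, hy, he⟩ := hle x.2
    rwa [← Subtype.ext he]
  have hc : π.ker ≤ Subgroup.center D := fun x hx => by
    rw [hker, Subgroup.mem_subgroupOf, Subgroup.mem_center_iff] at hx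
    exact Subgroup.mem_center_iff.2 fun y => Subtype.ext (hx y)
  have hstem : Cfsg.IsStemExtension π := ⟨hsurj, hc, hcomm ▸ le_top⟩
  have hne : π.ker ≠ ⊥ := by
    intro h
    have hmem : autJ * autK * (autK * autJ)⁻¹ ∈ D := by
      have := Subgroup.commutator_mem_commutator (Subgroup.mem_top autJ) (Subgroup.mem_top autK)
      simpa [D, commutator_def, commutatorElement_def, mul_assoc] using this
    have hk : (⟨_, hmem⟩ : D) ∈ π.ker := by
      rw [hker, Subgroup.mem_subgroupOf]; exact autJK_central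
    rw [h, Subgroup.mem_bot] at hk
    exact autJK_ne (congrArg Subtype.val hk)
  haveI : Fact (Nat.Prime 2) := ⟨Nat.prime_two⟩
  have hcard : Nat.card π.ker = 2 := by
    rcases (Nat.dvd_prime Nat.prime_two).1 (hb D π hstem) with h | h
    · exact absurd (Subgroup.eq_bot_of_card_eq _ h) hne
    · exact h
  exact ⟨D, inferInstance, inferInstance, π, hstem, isCyclic_of_prime_card hcard, hcard⟩

end Cfsg.Agent.H70.RuMult
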