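import Cfsg.Agent.H70.RuMult.Main
import Cfsg.Agent.H56.RuTits.RuSimple

/-!
The Schur multiplier of the Rudvalis group from a model on the 4060 lines hitting the two stored permutations.
-/

set_option autoImplicit false
set_option maxRecDepth 100000

namespace Cfsg.Agent.H70.RuMult

open Equiv Cfsg.Agent.H16 Cfsg.Agent.H36

theorem gens_zero : getN ctx.gens 0 = H56.RuTits.g0P :=
  Nat.eq_of_beq_eq_true (by decide +kernel)

theorem gens_one : getN ctx.gens 1 = H56.RuTits.g1P :=
  Nat.eq_of_beq_eq_true (by decide +kernel)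

/-- The generators as permutations. -/
noncomputable def sigma (c : Fin ctx.gens.length) : Perm (Fin ctx.n) :=
  if c.val = 0 then H56.RuTits.g0 else H56.RuTits.g1

theorem sigma_rep (c : Fin ctx.gens.length) : ctx.Rep (sigma c) (getN ctx.gens c) := by
  intro x
  obtain ⟨v, hv⟩ := c
  have h2 : v < 2 := hv
  interval_cases v
  · rw [gens_zero]; exact H56.RuTits.g0_apply x
  · rw [gens_one]; exact H56.RuTits.g1_apply x

/-- The multiplier from a faithful model containing both generators. -/
theorem hasMultiplier_of_model (ρ : Cfsg.Spor.Ru →* Perm (Fin 4060)) (hρ : Function.Injective ρ)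
    (h0 : H56.RuTits.g0 ∈ ρ.range) (h1 : H56.RuTits.g1 ∈ ρ.range)
    (hcard : Nat.card Cfsg.Spor.Ru = 145926144000) [Finite Cfsg.Spor.fourRu]
    (hs : IsSimpleGroup Cfsg.Spor.Ru) : Cfsg.HasCyclicSchurMultiplier Cfsg.Spor.Ru 2 :=
  hasMultiplier ρ hρ hcard (perfect_of_simple hs hcard) sigma sigma_rep (fun c => by
    obtain ⟨v, hv⟩ := c
    have h2 : v < 2 := hv
    interval_cases v
    · exact h0
    · exact h1)

end Cfsg.Agent.H70.RuMult
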