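import Cfsg.Agent.H70.RuMult.Bound
import Cfsg.Agent.H70.RuMult.Levels

/-!
The two stored permutations of 4060 points generate a group of order at least that of the Rudvalis group.
-/

set_option autoImplicit false
set_option maxRecDepth 100000

namespace Cfsg.Agent.H70.RuMult

open Equiv Cfsg.Agent.H16 Cfsg.Agent.H36

theorem levels_ok : ctx.levelsOk levels [] = true := by decide +kernel

theorem levels_prod : Nat.beq (ctx.prodCnt levels) 145926144000 = true := by decide +kernel

/-- The lower bound on the order. -/
theorem le_card_closure (σ : Fin ctx.gens.length → Perm (Fin ctx.n))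
    (hσ : ∀ c, ctx.Rep (σ c) (getN ctx.gens c)) :
    145926144000 ≤ Nat.card (Subgroup.closure (Set.range σ)) := by
  rw [← Nat.eq_of_beq_eq_true levels_prod]
  exact AutEngine.Ctx.prodCnt_le σ hσ (fun k hk => allFrom_spec slp_ok k (Nat.zero_le _) (by omega)) levels_ok

end Cfsg.Agent.H70.RuMult
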