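import Cfsg.Agent.H70.RuMult.Cover
import Cfsg.Agent.H70.RuMult.Model

/-!
The Schur multiplier of the Rudvalis group has order two, given a faithful action of the group on the 4060
lines that contains the two stored permutations, and the order of the group.
-/

set_option autoImplicit false
set_option maxRecDepth 100000

namespace Cfsg.Agent.H70.RuMult

open Equiv Cfsg.Agent.H16 Cfsg.Agent.H36 Cfsg.Agent.H13.SylMult

/-- A simple group of this order is perfect. -/
theorem perfect_of_simple (hs : IsSimpleGroup Cfsg.Spor.Ru)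
    (hcard : Nat.card Cfsg.Spor.Ru = 145926144000) : commutator Cfsg.Spor.Ru = ⊤ := by
  haveI := hs
  haveI : Finite Cfsg.Spor.Ru := Nat.finite_of_card_ne_zero (by rw [hcard]; norm_num)
  rcases (inferInstance : (commutator Cfsg.Spor.Ru).Normal).eq_bot_or_eq_top with h | h
  · exfalso
    have hc : ∀ a b : Cfsg.Spor.Ru, a * b = b * a := fun a b => by
      have hm : a * b * a⁻¹ * b⁻¹ ∈ commutator Cfsg.Spor.Ru :=
        Subgroup.commutator_mem_commutator (Subgroup.mem_top a) (Subgroup.mem_top b)
      rw [h, Subgroup.mem_bot] at hm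
      calc a * b = (a * b * a⁻¹ * b⁻¹) * (b * a) := by group
        _ = b * a := by rw [hm, one_mul]
    letI : CommGroup Cfsg.Spor.Ru := { (inferInstance : Group Cfsg.Spor.Ru) with mul_comm := hc }
    have hp := IsSimpleGroup.prime_card (α := Cfsg.Spor.Ru)
    rw [hcard] at hp
    norm_num at hp
  · exact h

theorem hasMultiplier [Finite Cfsg.Spor.fourRu]
    (ρ : Cfsg.Spor.Ru →* Perm (Fin ctx.n)) (hρ : Function.Injective ρ)
    (hcard : Nat.card Cfsg.Spor.Ru = 145926144000) (hperf : commutator Cfsg.Spor.Ru = ⊤)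
    (σ : Fin ctx.gens.length → Perm (Fin ctx.n)) (hσ : ∀ c, ctx.Rep (σ c) (getN ctx.gens c))
    (hmem : ∀ c, σ c ∈ ρ.range) : Cfsg.HasCyclicSchurMultiplier Cfsg.Spor.Ru 2 := by
  have hr : Nat.card ρ.range = 145926144000 := by
    rw [← hcard]; exact (Nat.card_congr (MonoidHom.ofInjective hρ).toEquiv).symm
  have hle : Subgroup.closure (Set.range σ) ≤ ρ.range := by
    rw [Subgroup.closure_le]; rintro _ ⟨c, rfl⟩; exact hmem c
  have heq : Subgroup.closure (Set.range σ) = ρ.range :=
    Subgroup.eq_of_le_of_card_ge hle (hr.le.trans (le_card_closure σ hσ))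
  have hcl : Nat.card (Subgroup.closure (Set.range σ)) = 145926144000 := by rw [heq]; exact hr
  let E : Cfsg.Spor.Ru ≃* Subgroup.closure (Set.range σ) :=
    (MonoidHom.ofInjective hρ).trans (MulEquiv.subgroupCongr heq.symm)
  have hb : ∀ (Δ : Type) [Group Δ] [Finite Δ] (τ : Δ →* Cfsg.Spor.Ru),
      Cfsg.IsStemExtension τ → Nat.card τ.ker ∣ 2 := by
    intro Δ _ _ τ hτ
    have h := card_ker_dvd_two σ hσ hcl Δ (E.toMonoidHom.comp τ) (H82.isStemExtension_comp_equiv hτ E)
    rwa [MonoidHom.ker_comp_of_injective _ _ E.injective] at h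
  exact hasCyclic_of_bound (MulEquiv.refl _) hb two_ne_zero (exists_double_cover hperf hb)

end Cfsg.Agent.H70.RuMult
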